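import Cfsg.Agent.H413.LThreeSeven
import Cfsg.Agent.H436.Simple
import Cfsg.Agent.LThreeCo1Six.NoComp
import Cfsg.Agent.H390.PslSpec
import Cfsg.Agent.LieClassical.FieldTransfer
import Cfsg.Agent.H127.PSUThreeEx

/-!
# Simple groups whose element orders are element orders of `PSL(3,7)`
-/

set_option autoImplicit false

namespace Cfsg.Agent.H413.RecLThreeName

open Subgroup Cfsg
open Cfsg.Agent.H413.LThreeSeven
open Cfsg.Agent.H436 Cfsg.Agent.OrdDiv

universe u

theorem mem_small (m : ℕ) (hm : m ∈ L) : m = 1 ∨ m = 2 ∨ m = 3 ∨ m = 4 ∨ m = 6 ∨ m = 7 ∨ m = 8 ∨ m = 14 ∨ m = 16 ∨ m = 19 := by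
  simpa [L] using hm

theorem L_primes : ∀ m ∈ L, m.Prime → m = 2 ∨ m = 3 ∨ m = 7 ∨ m = 19 := by
  intro m hm hp
  rcases mem_small m hm with rfl | rfl | rfl | rfl | rfl | rfl | rfl | rfl | rfl | rfl
  · exact absurd hp (by norm_num)
  · simp
  · simp
  · exact absurd hp (by norm_num)
  · exact absurd hp (by norm_num)
  · simp
  · exact absurd hp (by norm_num)
  · exact absurd hp (by norm_num)
  · exact absurd hp (by norm_num)
  · simp

/-- test for the prime divisors -/
def tst (n : ℕ) : Bool := [5, 11, 13, 17, 23, 29, 31, 37, 41, 43, 61, 73, 307].all fun p => n % p != 0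

theorem filter_eq : (KFL.filter fun g => tst (ordN g)) = [.psl 3 2, .psl 3 7, .psu 3 3, .psu 3 8] := by decide

theorem tst_spec {n : ℕ} (h : ∀ p, p.Prime → p ∣ n → p = 2 ∨ p = 3 ∨ p = 7 ∨ p = 19) : tst n = true := by
  unfold tst
  rw [List.all_eq_true]
  intro p hp
  rw [bne_iff_ne]
  intro h0
  have hd : p ∣ n := Nat.dvd_of_mod_eq_zero h0
  simp only [List.mem_cons, List.not_mem_nil, or_false] at hp
  rcases hp with rfl | rfl | rfl | rfl | rfl | rfl | rfl | rfl | rfl | rfl | rfl | rfl | rfl <;>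
  · have := h _ (by norm_num) hd
    omega

theorem name {S : Type u} [Group S] [Finite S] [IsSimpleGroup S] (hna : ¬ IsMulCommutative S)
    (hω : ∀ g : S, orderOf g ∈ L) :
    Nat.card S = 168 ∨ Nat.card S = 6048 ∨ Nonempty (S ≃* P) := by
  have hpr : ∀ p, p.Prime → p ∣ Nat.card S → p = 2 ∨ p = 3 ∨ p = 7 ∨ p = 19 := by
    intro p hp hd
    have : Fact p.Prime := ⟨hp⟩
    obtain ⟨x, hx⟩ := exists_prime_orderOf_dvd_card' p hd
    exact L_primes p (hx ▸ hω x) hp
  have h4 : (Nat.card S).primeFactors.card ≤ 4 := by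
    have : (Nat.card S).primeFactors ⊆ {2, 3, 7, 19} := by
      intro p hp
      have := hpr p (Nat.prime_of_mem_primeFactors hp) (Nat.dvd_of_mem_primeFactors hp)
      simpa using this
    exact (Finset.card_le_card this).trans (by decide)
  obtain ⟨g, hg, ⟨q, rfl⟩ | ⟨q, rfl⟩ | hK⟩ := k_four_simple hna h4
  · -- `L₂(q)`
    left
    obtain ⟨-, hq4, hq⟩ := hg.cond
    have hq4 := hq4 rfl
    obtain ⟨F, _, _, hF, ⟨e⟩⟩ := hg.real
    obtain ⟨p, hcp⟩ := CharP.exists F
    have hp : Fact p.Prime := ⟨CharP.char_is_prime F p⟩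
    have hL : ∀ x : Matrix.ProjectiveSpecialLinearGroup (Fin 2) F, orderOf x ∈ L := fun x => by
      rw [← orderOf_injective e.symm.toMonoidHom e.symm.injective]
      exact hω _
    have hF4 : 4 ≤ Fintype.card F := by rw [hF]; exact hq4
    obtain ⟨x1, hx1⟩ := H390.PslSpec.exists_char (F := F) (p := p)
    obtain ⟨x2, hx2⟩ := H390.PslSpec.exists_sub (F := F) (p := p) hF4
    obtain ⟨x3, hx3⟩ := H390.PslSpec.exists_add (F := F) (p := p) hF4
    have h1 := hL x1
    have h2 := hL x2
    have h3 := hL x3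
    rw [hx1] at h1
    rw [hx2, hF] at h2
    rw [hx3, hF] at h3
    have h1' := L_primes p h1 hp.out
    have hpq : p ∣ q := by
      obtain ⟨n, -, hn⟩ := FiniteField.card F p
      rw [← hF, hn]
      exact dvd_pow_self p n.ne_zero
    have hq7 : q = 7 := by
      rcases H390.PslSpec.dd_cases q with hd | hd
      · have hodd : ¬ 2 ∣ q - 1 := by
          intro h
          have : 2 ∣ Nat.gcd 2 (q - 1) := Nat.dvd_gcd dvd_rfl h
          rw [show Nat.gcd 2 (q - 1) = 1 from hd] at this
          omega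
        rw [hd, Nat.div_one] at h2 h3
        have h2' := mem_small _ h2
        have h3' := mem_small _ h3
        omega
      · have heven : 2 ∣ q - 1 := by
          have : Nat.gcd 2 (q - 1) ∣ q - 1 := Nat.gcd_dvd_right _ _
          rwa [show Nat.gcd 2 (q - 1) = 2 from hd] at this
        rw [hd] at h2 h3
        have h2' := mem_small _ h2
        have h3' := mem_small _ h3
        have h15 : q ≠ 15 := by
          rintro rfl
          exact absurd hq (by rw [isPrimePow_nat_iff_bounded]; decide)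
        have hcases : q = 5 ∨ q = 7 ∨ q = 13 ∨ q = 15 := by omega
        rcases hcases with rfl | rfl | rfl | rfl
        · rcases h1' with rfl | rfl | rfl | rfl <;> revert hpq <;> decide
        · rfl
        · rcases h1' with rfl | rfl | rfl | rfl <;> revert hpq <;> decide
        · exact absurd rfl h15
    subst hq7
    rw [hg.ord]
    rfl
  · exfalso
    obtain ⟨m, hm, rfl⟩ := hg.cond
    have h2 : 1 * Nat.card S = (2 ^ (2 * m + 1)) ^ 2 * ((2 ^ (2 * m + 1) - 1) * ((2 ^ (2 * m + 1)) ^ 2 + 1)) := hg.eq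
    have h5 : 5 ∣ Nat.card S := by
      rw [one_mul] at h2
      rw [h2]
      apply Dvd.dvd.mul_left
      apply Dvd.dvd.mul_left
      have : (2 ^ (2 * m + 1)) ^ 2 % 5 = 4 := by
        rw [← pow_mul, show (2 * m + 1) * 2 = 4 * m + 2 by ring, pow_add, pow_mul, Nat.mul_mod, Nat.pow_mod]
        norm_num
      omega
    have := hpr 5 (by norm_num) h5
    omega
  · have h2 : g ∈ KFL.filter fun g => tst (ordN g) := by
      rw [List.mem_filter]
      refine ⟨hK, ?_⟩
      rw [← hg.ord]
      exact tst_spec hpr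
    rw [filter_eq] at h2
    simp only [List.mem_cons, List.not_mem_nil, or_false] at h2
    rcases h2 with rfl | rfl | rfl | rfl
    · left
      rw [hg.ord]
      rfl
    · right; right
      obtain ⟨F, _, _, hF, ⟨e⟩⟩ := hg.real
      have h7 : Fintype.card F = Fintype.card (ZMod 7) := by rw [hF, ZMod.card]
      let e' : F ≃+* ZMod 7 := FiniteField.ringEquivOfCardEq h7
      exact ⟨e.trans (LieClassical.FieldTransfer.pslCongr e')⟩
    · right; left
      rw [hg.ord]
      rfl
    · exfalso
      obtain ⟨F, _, _, hF, ⟨e⟩⟩ := hg.real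
      obtain ⟨z, hz⟩ := H127.PSUThreeEx.ex_one hF 9 (by norm_num)
      have h1 := hω (e.symm z)
      rw [show orderOf (e.symm z) = orderOf z from orderOf_injective e.symm.toMonoidHom e.symm.injective z, hz] at h1
      revert h1
      decide

end Cfsg.Agent.H413.RecLThreeName
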